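import Mathlib

/-!
# Orders of point stabilisers of transitive groups
-/

set_option autoImplicit false

namespace Cfsg.Agent.Lib.PermKit

open MulAction

theorem card_stab_of_trans {G X : Type*} [Group G] [MulAction G X] [Finite X] [Finite G]
    (hT : IsPretransitive G X) (x : X) {c d : ℕ} (hX : Nat.card X = d)
    (hG : Nat.card G = d * c) (hd : 0 < d) : Nat.card (stabilizer G x) = c := by
  have h := (stabilizer G x).card_mul_index
  rw [index_stabilizer, orbit_eq_univ, Set.ncard_univ, hX, hG, mul_comm] at h
  exact Nat.eq_of_mul_eq_mul_left hd h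

end Cfsg.Agent.Lib.PermKit
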