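import Mathlib

/-!
# Subgroups of a product which are graphs
-/

set_option autoImplicit false

namespace Cfsg.Agent.Lib.PermKit

/-- Two elements with compatible images, in a subgroup of a product which is the graph of a
bijection between subgroups. -/
theorem exists_sub_of_lifts {S T : Type*} [Group S] [Group T] {a b : S} {a' b' : T}
    (C : Subgroup (S × T)) (ha : (a, a') ∈ C) (hb : (b, b') ∈ C)
    (h1 : ∀ p ∈ C, p.1 = 1 → p.2 = 1) (h2 : ∀ p ∈ C, p.2 = 1 → p.1 = 1)
    (K : Subgroup S) (haK : a ∈ K) (hbK : b ∈ K) :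
    ∃ N : Subgroup S, N ≤ K ∧ Nonempty (N ≃* (Subgroup.closure {a', b'} : Subgroup T)) := by
  classical
  let D : Subgroup (S × T) := Subgroup.closure {(a, a'), (b, b')}
  have hDC : D ≤ C := by
    rw [Subgroup.closure_le]
    intro x hx
    rcases hx with h | h
    · rw [h]; exact ha
    · rw [Set.mem_singleton_iff.1 h]; exact hb
  let φ : D →* S := (MonoidHom.fst S T).comp D.subtype
  let ψ : D →* T := (MonoidHom.snd S T).comp D.subtype
  have hφ : Function.Injective φ := by
    rw [injective_iff_map_eq_one]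
    intro p hp
    apply Subtype.ext
    exact Prod.ext hp (h1 p.1 (hDC p.2) hp)
  have hψ : Function.Injective ψ := by
    rw [injective_iff_map_eq_one]
    intro p hp
    apply Subtype.ext
    exact Prod.ext (h2 p.1 (hDC p.2) hp) hp
  have hrange : ψ.range = Subgroup.closure {a', b'} := by
    have h3 : ψ.range = D.map (MonoidHom.snd S T) := by
      ext t
      constructor
      · rintro ⟨p, rfl⟩
        exact ⟨p.1, p.2, rfl⟩
      · rintro ⟨p, hp, rfl⟩
        exact ⟨⟨p, hp⟩, rfl⟩
    rw [h3, MonoidHom.map_closure]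
    congr 1
    ext t
    simp only [Set.mem_image, Set.mem_insert_iff, Set.mem_singleton_iff, MonoidHom.coe_snd]
    constructor
    · rintro ⟨p, rfl | rfl, rfl⟩
      · exact Or.inl rfl
      · exact Or.inr rfl
    · rintro (rfl | rfl)
      · exact ⟨_, Or.inl rfl, rfl⟩
      · exact ⟨_, Or.inr rfl, rfl⟩
  refine ⟨φ.range, ?_, ⟨(MonoidHom.ofInjective hφ).symm.trans
    ((MonoidHom.ofInjective hψ).trans (MulEquiv.subgroupCongr hrange))⟩⟩
  rintro _ ⟨p, rfl⟩
  have hle : D ≤ K.comap (MonoidHom.fst S T) := by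
    rw [Subgroup.closure_le]
    intro x hx
    rcases hx with h | h
    · rw [h]; exact haK
    · rw [Set.mem_singleton_iff.1 h]; exact hbK
  exact hle p.2

end Cfsg.Agent.Lib.PermKit
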