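import Cfsg.Agent.Lib.PermKit.Final
import Cfsg.Agent.Lib.PermKit.Benes

/-!
# Graphs whose one-point stabilisers preserve a finer relation

When the group of the graph on `rows 0` is rank three, the colour refinement of the machine sees
too little. Here a second relation `rows 1` is given, which is attached to a base point `b`: the
stabiliser of `b` in the group of the graph preserves it. The chain is then run with both relations.
-/

set_option autoImplicit false
set_option linter.unusedSectionVars false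

namespace Cfsg.Agent.Lib.PermKit

open Equiv Cfsg.Agent.Lib.Compute MulAction

variable {α : Type*} [Fintype α] [DecidableEq α] {n : ℕ} {E : Enc α n}

theorem autG_two_le (rows : ℕ → ℕ → ℕ) : autG E rows 2 ≤ autG E rows 1 :=
  fun _ h r hr => h r (by omega)

/-- A code passing the test of the rows preserves the relation. -/
theorem rel_of_code {rows : ℕ → ℕ → ℕ} {K : ℕ} {σ : Perm α} {f : ℕ → ℕ} (hc : E.IsCode σ f)
    (hK : n ≤ 16 * K) {r : ℕ} (h : ∀ i, i < n → rowOK rows K f r i = true) {a b : α}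
    (hab : RelR E rows r a b) : RelR E rows r (σ a) (σ b) := by
  have h1 := h (E.idx a) (E.idx_lt a)
  rw [rowOK, force_eq, force_eq] at h1
  have h2 := allSet_spec h1 (lt_of_lt_of_le (E.idx_lt b) hK) hab
  rw [tb_eq] at h2
  show (rows r (E.idx (σ a))).testBit (E.idx (σ b)) = true
  rw [← hc a, ← hc b]
  exact h2

/-- The stabiliser of the base point preserves the second relation, as soon as the second relation
is determined by the base point and one more point, and there are enough elements preserving it. -/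
theorem aut_two_of_trans {rows : ℕ → ℕ → ℕ} {b x : ℕ} (hx : x < n)
    (hinv : ∀ ρ ∈ autG E rows 1, ρ (E.pt b) = E.pt b → ρ (E.pt x) = E.pt x → InvM E ρ (rows 1 x))
    (hsupp : ∀ u v, RelR E rows 1 u v → RelR E rows 0 (E.pt b) u)
    (htr : ∀ u, RelR E rows 0 (E.pt b) u → ∃ τ ∈ autG E rows 2, τ (E.pt b) = E.pt b ∧ τ (E.pt x) = u)
    {σ : Perm α} (hσ : σ ∈ autG E rows 1) (hfix : σ (E.pt b) = E.pt b) : σ ∈ autG E rows 2 := by
  intro r hr u v huv
  have hr01 : r = 0 ∨ r = 1 := by omega
  rcases hr01 with rfl | rfl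
  · exact hσ 0 (by omega) u v huv
  have hu := hsupp u v huv
  have hsu : RelR E rows 0 (E.pt b) (σ u) := by
    have := hσ 0 (by omega) _ _ hu
    rwa [hfix] at this
  obtain ⟨τ, hτ, hτb, hτx⟩ := htr u hu
  obtain ⟨τ', hτ', hτ'b, hτ'x⟩ := htr (σ u) hsu
  have hτ1 := autG_two_le rows hτ
  have hτ'1 := autG_two_le rows hτ'
  set ρ := τ'⁻¹ * σ * τ with hρ
  have hρA : ρ ∈ autG E rows 1 :=
    (autG E rows 1).mul_mem ((autG E rows 1).mul_mem ((autG E rows 1).inv_mem hτ'1) hσ) hτ1
  have hρb : ρ (E.pt b) = E.pt b := by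
    rw [hρ, Perm.mul_apply, Perm.mul_apply, hτb, hfix]
    rw [Perm.inv_eq_iff_eq]
    exact hτ'b.symm
  have hρx : ρ (E.pt x) = E.pt x := by
    rw [hρ, Perm.mul_apply, Perm.mul_apply, hτx]
    rw [Perm.inv_eq_iff_eq]
    exact hτ'x.symm
  have hI := hinv ρ hρA hρb hρx
  have h1 : RelR E rows 1 (τ (E.pt x)) v := by rw [hτx]; exact huv
  have h2 : RelR E rows 1 (E.pt x) (τ⁻¹ v) := by
    rw [← relR_iff E hτ (r := 1) (by omega)]
    simpa using h1
  have h3 : (rows 1 x).testBit (E.idx (τ⁻¹ v)) = true := by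
    have := h2
    unfold RelR at this
    rwa [E.idx_pt x hx] at this
  have h4 := hI (τ⁻¹ v)
  rw [h3] at h4
  have h5 : ρ (τ⁻¹ v) = τ'⁻¹ (σ v) := by
    rw [hρ, Perm.mul_apply, Perm.mul_apply]
    simp
  rw [h5] at h4
  have h6 : RelR E rows 1 (E.pt x) (τ'⁻¹ (σ v)) := by
    unfold RelR
    rw [E.idx_pt x hx]
    exact h4
  have h7 := hτ' 1 (by omega) _ _ h6
  rw [hτ'x] at h7
  simpa using h7

/-- The mask filtered by a count is invariant. -/
theorem invM_filter {rows : ℕ → ℕ → ℕ} {b x c : ℕ} (hb : b < n) (hx : x < n)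
    (hform : ∀ y, y < n → (rows 1 x).testBit y = (tb (Nat.land (rows 0 b) (rows 0 x)) y &&
      Nat.beq (Enc.popAux (Nat.land (rows 0 y) (Nat.land (rows 0 b) (rows 0 x))) n) c))
    {ρ : Perm α} (hρ : ρ ∈ autG E rows 1) (h1 : ρ (E.pt b) = E.pt b) (h2 : ρ (E.pt x) = E.pt x) :
    InvM E ρ (rows 1 x) := by
  set C := Nat.land (rows 0 b) (rows 0 x) with hC
  have hCI : InvM E ρ C := (invM_row hρ (by omega) hb h1).land (invM_row hρ (by omega) hx h2)
  intro a
  rw [hform _ (E.idx_lt _), hform _ (E.idx_lt _), tb_eq, tb_eq, hCI a]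
  have key : Enc.popAux (Nat.land (rows 0 (E.idx (ρ a))) C) n = Enc.popAux (Nat.land (rows 0 (E.idx a)) C) n := by
    rw [← E.card_finOf, ← E.card_finOf]
    have himg : E.finOf (Nat.land (rows 0 (E.idx (ρ a))) C) = (E.finOf (Nat.land (rows 0 (E.idx a)) C)).image ρ := by
      ext z
      rw [Finset.mem_image]
      constructor
      · intro hz
        refine ⟨ρ⁻¹ z, ?_, by simp⟩
        rw [Enc.mem_finOf] at hz ⊢
        have hz' : ((rows 0 (E.idx (ρ a))) &&& C).testBit (E.idx z) = true := hz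
        rw [Nat.testBit_and, Bool.and_eq_true] at hz'
        have hg : ((rows 0 (E.idx a)) &&& C).testBit (E.idx (ρ⁻¹ z)) = true := by
          rw [Nat.testBit_and, Bool.and_eq_true]
          constructor
          · have h3 : RelR E rows 0 (ρ a) (ρ (ρ⁻¹ z)) := by
              simpa [RelR] using hz'.1
            exact (relR_iff E hρ (by omega) _ _).1 h3
          · rw [← hCI]
            simpa using hz'.2
        exact hg
      · rintro ⟨w, hw, rfl⟩
        rw [Enc.mem_finOf] at hw ⊢
        have hw' : ((rows 0 (E.idx a)) &&& C).testBit (E.idx w) = true := hw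
        rw [Nat.testBit_and, Bool.and_eq_true] at hw'
        have hg : ((rows 0 (E.idx (ρ a))) &&& C).testBit (E.idx (ρ w)) = true := by
          rw [Nat.testBit_and, Bool.and_eq_true]
          constructor
          · exact hρ 0 (by omega) _ _ hw'.1
          · rw [hCI]
            exact hw'.2
        exact hg
    rw [himg, Finset.card_image_of_injective _ ρ.injective]
  rw [key]

/-- The order of a group generated by codes, by a chain for the stabiliser of a point, run with
the second relation. -/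
theorem group_main_two {rows : ℕ → ℕ → ℕ} {gc : ℕ → ℕ → ℕ} {H : Subgroup (Perm α)} {b x c : ℕ}
    (hHA : H ≤ autG E rows 1) (hgc : ∀ k, InK E H (gc k)) (hb : b < n) (hx : x < n)
    (htrans : IsPretransitive H α)
    (hform : ∀ y, y < n → (rows 1 x).testBit y = (tb (Nat.land (rows 0 b) (rows 0 x)) y &&
      Nat.beq (Enc.popAux (Nat.land (rows 0 y) (Nat.land (rows 0 b) (rows 0 x))) n) c))
    (hsupp : ∀ u v, RelR E rows 1 u v → RelR E rows 0 (E.pt b) u)
    (fs : List (ℕ → ℕ)) (hinK1 : ∀ f ∈ fs, InK E (stabN E (autG E rows 2) [b]) f)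
    (hbfs : bfs fs (Nat.succ n) x = rows 0 b)
    (l0 : LvlW) (ls : List LvlW) {fops : List Op} {fin : List ℕ}
    (hl0b : l0.b = b) (hl0 : l0.ws = [])
    (hbs : ∀ l ∈ ls, l.b < n)
    (hws : ∀ l ∈ ls, ∀ w ∈ l.ws, wordC gc w b = b)
    (hchain : ChainOK n 2 rows fops fin [] ((l0 :: ls).map (LvlW.toLvl gc))) :
    Nat.card H = n * (l0.s * (ls.map LvlW.s).prod) ∧ H = autG E rows 1 := by
  -- the elements of the first level
  have hword : ∀ w, wordC gc w b = b → ∃ σ ∈ H, E.IsCode σ (wordC gc w) ∧ σ (E.pt b) = E.pt b := by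
    intro w hw
    obtain ⟨σ, h1, h2⟩ := InK.word hgc w
    refine ⟨σ, h1, h2, ?_⟩
    rw [h2.perm_eq, E.idx_pt b hb, hw]
  have htr : ∀ u, RelR E rows 0 (E.pt b) u → ∃ τ ∈ autG E rows 2, τ (E.pt b) = E.pt b ∧ τ (E.pt x) = u := by
    intro u hu
    have h1 : (bfs fs (Nat.succ n) x).testBit (E.idx u) = true := by
      rw [hbfs]
      have := hu
      unfold RelR at this
      rwa [E.idx_pt b hb] at this
    obtain ⟨_, τ, hτ, ht⟩ := bfs_reach hinK1 hx h1
    refine ⟨τ, hτ.1, hτ.2 _ (by simp), ?_⟩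
    rw [ht, E.pt_idx]
  have hA : ∀ σ ∈ autG E rows 1, σ (E.pt b) = E.pt b → σ ∈ autG E rows 2 := fun σ hσ hfix =>
    aut_two_of_trans hx (fun ρ hρ h1 h2 => invM_filter hb hx hform hρ h1 h2) hsupp htr hσ hfix
  -- the chain
  have hKA : H ⊓ autG E rows 2 ≤ autG E rows 2 := inf_le_right
  have hcs := chain_spec (E := E) (rows := rows) (m := 2) (fops := fops) (fin := fin) hKA
    ((l0 :: ls).map (LvlW.toLvl gc)) [] (by simp) (by
      intro l hl
      obtain ⟨l', hl', rfl⟩ := List.mem_map.1 hl
      rcases List.mem_cons.1 hl' with rfl | hl'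
      · show l'.b < n
        rw [hl0b]
        exact hb
      · exact hbs l' hl') (by
      intro l hl f hf
      obtain ⟨l', hl', rfl⟩ := List.mem_map.1 hl
      obtain ⟨w, hw, rfl⟩ := List.mem_map.1 hf
      rcases List.mem_cons.1 hl' with rfl | hl'
      · rw [hl0] at hw
        simp at hw
      · obtain ⟨σ, hσ, hc, hσb⟩ := hword w (hws l' hl' w hw)
        exact ⟨σ, ⟨hσ, hA σ (hHA hσ) hσb⟩, hc⟩) hchain
  have hnil : stabN E (autG E rows 2) [] = autG E rows 2 := by simp [stabN]
  rw [hnil] at hcs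
  -- elements of the second group fix the base point
  have hfixb : ∀ σ ∈ autG E rows 2, σ (E.pt b) = E.pt b := by
    intro σ hσ
    have hL := hchain.1
    have hσ' : σ ∈ stabN E (autG E rows 2) [] := by rw [hnil]; exact hσ
    have h1 := level_cover (hb := by show (LvlW.toLvl gc l0).b < n; show l0.b < n; rw [hl0b]; exact hb) hL hσ'
    have hfs : (LvlW.toLvl gc l0).fs = [] := by
      show l0.ws.map (wordC gc) = []
      rw [hl0]
      rfl
    rw [hfs] at h1
    obtain ⟨_, τ, hτ, ht⟩ := bfs_reach (K := ⊥) (E := E) (fs := []) (by simp)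
      (by show l0.b < n; rw [hl0b]; exact hb) h1
    rw [Subgroup.mem_bot] at hτ
    rw [hτ] at ht
    have h2 : (LvlW.toLvl gc l0).b = b := hl0b
    rw [h2] at ht
    rw [E.pt_idx] at ht
    exact ht.symm
  have hEq : stabL H [E.pt b] = autG E rows 2 := by
    ext σ
    constructor
    · rintro ⟨h1, h2⟩
      exact hA σ (hHA h1) (h2 _ (by simp))
    · intro h1
      refine ⟨(hcs.2 h1).1, fun y hy => ?_⟩
      rw [List.mem_singleton] at hy
      rw [hy]
      exact hfixb σ h1
  have hH : H = autG E rows 1 := by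
    refine le_antisymm hHA fun σ hσ => ?_
    obtain ⟨τ, hτ⟩ := htrans.exists_smul_eq (E.pt b) (σ (E.pt b))
    have hτ' : (τ : Perm α) (E.pt b) = σ (E.pt b) := hτ
    have h1 : (τ : Perm α)⁻¹ * σ ∈ autG E rows 1 :=
      (autG E rows 1).mul_mem ((autG E rows 1).inv_mem (hHA τ.2)) hσ
    have h2 : ((τ : Perm α)⁻¹ * σ) (E.pt b) = E.pt b := by
      rw [Perm.mul_apply, ← hτ']
      simp
    have h3 := (hcs.2 (hA _ h1 h2)).1
    have h4 := H.mul_mem τ.2 h3
    simpa using h4
  refine ⟨?_, hH⟩
  have hstep := card_stabL_step (G := H) (l := []) (b := E.pt b) (O := Finset.univ)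
    (fun y _ => by
      obtain ⟨τ, hτ⟩ := htrans.exists_smul_eq (E.pt b) y
      exact ⟨τ, ⟨τ.2, by simp⟩, hτ⟩) (fun _ _ => Finset.mem_univ _)
  have hnil2 : stabL H [] = H := stabL_nil H
  rw [hnil2, hEq, hcs.1] at hstep
  rw [hstep, Finset.card_univ]
  have hcardα : Fintype.card α = n := by
    rw [Fintype.card_congr E.equivFin, Fintype.card_fin]
  rw [hcardα]
  simp only [List.map_cons, List.prod_cons, List.map_map]
  rfl

/-! ### The checks -/

/-- The check of the description of the second relation. -/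
noncomputable def formOK (n : ℕ) (R C c : ℕ) (row0 : ℕ → ℕ) : Bool :=
  force R fun R => force C fun C => allBelow (fun y => bcond (tb C y)
    (bcond (tb R y) (Nat.beq (Enc.popAux (Nat.land (row0 y) C) n) c)
      (bcond (Nat.beq (Enc.popAux (Nat.land (row0 y) C) n) c) false true))
    (bcond (tb R y) false true)) n

theorem form_spec {n R C c : ℕ} {row0 : ℕ → ℕ} (h : formOK n R C c row0 = true) {y : ℕ} (hy : y < n) :
    R.testBit y = (tb C y && Nat.beq (Enc.popAux (Nat.land (row0 y) C) n) c) := by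
  unfold formOK at h
  rw [force_eq, force_eq] at h
  have h1 := (allBelow_iff _ _).1 h y hy
  rw [tb_eq R y] at h1
  cases h2 : tb C y
  · rw [h2, bcond_false] at h1
    cases h3 : R.testBit y
    · rfl
    · rw [h3, bcond_true] at h1
      exact absurd h1 (by simp)
  · rw [h2, bcond_true] at h1
    cases h3 : R.testBit y
    · rw [h3, bcond_false] at h1
      cases h4 : Nat.beq (Enc.popAux (Nat.land (row0 y) C) n) c
      · rfl
      · rw [h4, bcond_true] at h1
        exact absurd h1 (by simp)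
    · rw [h3, bcond_true] at h1
      rw [h1]
      rfl

/-- The check of the support of the second relation. -/
theorem supp_of_check {rows : ℕ → ℕ → ℕ} {b : ℕ} (hb : b < n)
    (h : allBelow (fun i => bcond (Nat.beq (rows 1 i) 0) true (tb (rows 0 b) i)) n = true) (u v : α)
    (huv : RelR E rows 1 u v) : RelR E rows 0 (E.pt b) u := by
  have h1 := (allBelow_iff _ _).1 h (E.idx u) (E.idx_lt u)
  have h2 : Nat.beq (rows 1 (E.idx u)) 0 = false := by
    cases h3 : Nat.beq (rows 1 (E.idx u)) 0
    · rfl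
    · have h4 := Nat.eq_of_beq_eq_true h3
      have h5 := huv
      unfold RelR at h5
      rw [h4] at h5
      simp at h5
  rw [h2, bcond_false, tb_eq] at h1
  unfold RelR
  rw [E.idx_pt b hb]
  exact h1

/-- The lower bound of an orbit-stabiliser step. -/
theorem card_stabL_ge {G : Subgroup (Perm α)} {l : List α} {b : α} {O : Finset α}
    (hreach : ∀ y ∈ O, ∃ τ ∈ stabL G l, τ b = y) :
    O.card * Nat.card (stabL G (b :: l)) ≤ Nat.card (stabL G l) := by
  let H := stabL G l
  have h1 := (MulAction.stabilizer H b).card_mul_index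
  rw [MulAction.index_stabilizer] at h1
  have h3 : Nat.card (MulAction.stabilizer H b) = Nat.card (stabL G (b :: l)) := by
    refine Nat.card_congr ⟨fun x => ⟨x.1.1, x.1.2.1, ?_⟩, fun x => ⟨⟨x.1, x.2.1, ?_⟩, ?_⟩, ?_, ?_⟩
    · intro y hy
      rcases List.mem_cons.1 hy with rfl | hy
      · exact x.2
      · exact x.1.2.2 y hy
    · intro y hy
      exact x.2.2 y (List.mem_cons_of_mem _ hy)
    · exact x.2.2 b List.mem_cons_self
    · intro x
      rfl
    · intro x
      rfl
  have h2 : O.card ≤ (MulAction.orbit H b).ncard := by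
    rw [← Set.ncard_coe_finset]
    refine Set.ncard_le_ncard (fun y hy => ?_) (Set.toFinite _)
    obtain ⟨τ, hτ, ht⟩ := hreach y hy
    exact ⟨⟨τ, hτ⟩, ht⟩
  rw [h3] at h1
  have h4 : Nat.card H = Nat.card (stabL G l) := rfl
  rw [← h4, ← h1, mul_comm]
  exact Nat.mul_le_mul_left _ h2

/-- The lower bound for a level of words. -/
theorem level_lower {K : Subgroup (Perm α)} {F : List ℕ} {b s : ℕ} {fs : List (ℕ → ℕ)} (hb : b < n)
    (hF : ∀ x ∈ F, x < n) (hfs : ∀ f ∈ fs, InK E K f)
    (h1 : allF (fun f => allN (fun x => Nat.beq (f x) x) F) fs = true)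
    (h2 : Enc.popAux (bfs fs (Nat.succ n) b) n = s) :
    s * Nat.card (stabN E K (b :: F)) ≤ Nat.card (stabN E K F) := by
  have h := card_stabL_ge (G := K) (l := F.map E.pt) (b := E.pt b)
    (O := E.finOf (bfs fs (Nat.succ n) b)) ?_
  · rw [E.card_finOf, h2] at h
    exact h
  · intro y hy
    rw [Enc.mem_finOf] at hy
    have hK : ∀ f ∈ fs, InK E (stabN E K F) f :=
      fun f hf => inK_stab (hfs f hf) hF (allF_spec h1 hf)
    obtain ⟨_, τ, hτ, ht⟩ := bfs_reach hK hb hy
    exact ⟨τ, hτ, by rw [ht, E.pt_idx]⟩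

/-! ### Mixing sparse relations with a dense one

A sparse mask has few bits in its low positions, and the kernel hashes a big number by its low bits:
many sparse masks give collisions in the caches of the kernel. The swap networks are then tested on
the sum modulo 2 of a sparse relation and a dense one. -/

/-- The relation `0` and the sum modulo 2 of the relations `0` and `1`. -/
noncomputable def xorRows (rows : ℕ → ℕ → ℕ) (r i : ℕ) : ℕ :=
  bcond (Nat.beq r 0) (rows 0 i) (Nat.xor (rows 0 i) (rows 1 i))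

theorem aut_of_xor {rows : ℕ → ℕ → ℕ} {σ : Perm α} (h : σ ∈ autG E (xorRows rows) 2) :
    σ ∈ autG E rows 2 := by
  intro r hr a b hab
  have hr01 : r = 0 ∨ r = 1 := by omega
  rcases hr01 with rfl | rfl
  · exact h 0 (by omega) a b hab
  have h0 := relR_iff E h (r := 0) (by omega) a b
  have h1 := relR_iff E h (r := 1) (by omega) a b
  have e0 : ∀ u v, RelR E (xorRows rows) 0 u v ↔ (rows 0 (E.idx u)).testBit (E.idx v) = true :=
    fun _ _ => Iff.rfl
  have e1 : ∀ u v, RelR E (xorRows rows) 1 u v ↔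
      ((rows 0 (E.idx u)).testBit (E.idx v) ^^ (rows 1 (E.idx u)).testBit (E.idx v)) = true := by
    intro u v
    show ((rows 0 (E.idx u)) ^^^ (rows 1 (E.idx u))).testBit (E.idx v) = true ↔ _
    rw [Nat.testBit_xor]
  rw [e0, e0] at h0
  rw [e1, e1] at h1
  have hab' : (rows 1 (E.idx a)).testBit (E.idx b) = true := hab
  show (rows 1 (E.idx (σ a))).testBit (E.idx (σ b)) = true
  rw [hab'] at h1
  cases h2 : (rows 0 (E.idx a)).testBit (E.idx b) <;>
    cases h3 : (rows 0 (E.idx (σ a))).testBit (E.idx (σ b)) <;>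
    cases h4 : (rows 1 (E.idx (σ a))).testBit (E.idx (σ b)) <;>
    simp [h2, h3, h4] at h0 h1 ⊢

end Cfsg.Agent.Lib.PermKit
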